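import Mathlib
import Cfsg.Agent.Lib.Helper74.O720.Defs

set_option autoImplicit false

namespace Cfsg.Agent.Lib.Helper74.O720

variable {G : Type*} [Group G] [Finite G]

theorem F1 (L V I : Subgroup G) (hV : IsPGroup 2 V) (hVL : V ≤ L) (hVn : L ≤ Nz V) (hI : I ≤ L) (k : ℕ)
    (hIk : 2 ^ k ∣ Nat.card I) (hLk : ¬ 2 ^ (k + 1) ∣ Nat.card L) : V ≤ I := by
  haveI : Fact (Nat.Prime 2) := ⟨Nat.prime_two⟩
  obtain ⟨S0, hS0⟩ := Sylow.exists_subgroup_card_pow_prime (G := I) 2 hIk
  set S : Subgroup G := S0.map I.subtype with hS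
  have hScard : Nat.card S = 2 ^ k := by
    rw [hS, Subgroup.card_map_of_injective I.subtype_injective, hS0]
  have hSI : S ≤ I := by
    rw [hS]; exact Subgroup.map_subtype_le S0
  have hSp : IsPGroup 2 S := IsPGroup.of_card hScard
  have hSN : S ≤ Nz V := (hSI.trans hI).trans hVn
  have hsup : IsPGroup 2 (V ⊔ S : Subgroup G) := IsPGroup.to_sup_of_normal_left' hV hSp hSN
  have hsupL : V ⊔ S ≤ L := sup_le hVL (hSI.trans hI)
  obtain ⟨m, hm⟩ := IsPGroup.iff_card.mp hsup
  have hdvd : 2 ^ m ∣ Nat.card L := by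
    rw [← hm]; exact Subgroup.card_dvd_of_le hsupL
  have hmk : m ≤ k := by
    by_contra hcon
    push_neg at hcon
    exact hLk ((pow_dvd_pow 2 hcon).trans hdvd)
  have hle : S ≤ V ⊔ S := le_sup_right
  have hcard_le : Nat.card (V ⊔ S : Subgroup G) ≤ Nat.card S := by
    rw [hm, hScard]; exact Nat.pow_le_pow_right (by norm_num) hmk
  have heq : S = V ⊔ S := Subgroup.eq_of_le_of_card_ge hle hcard_le
  have : V ≤ S := by
    rw [heq]; exact le_sup_left
  exact this.trans hSI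

end Cfsg.Agent.Lib.Helper74.O720
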