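import Mathlib
import Cfsg.Agent.Lib.Helper74.O720.Defs
import Cfsg.Agent.Lib.Helper4.O720.NCG
import Cfsg.Agent.Lib.Helper20.O720.P9

set_option autoImplicit false

namespace Cfsg.Agent.Lib.Helper74.O720

variable {G : Type*} [Group G] [Finite G] [IsSimpleGroup G]

theorem I1 (h : Nat.card G = 720) (P : Sylow 3 G) (hM : Nat.card (Nz (P : Subgroup G)) = 72)
    (hC : Cz (P : Subgroup G) ≠ (P : Subgroup G)) :
    ∃ V : Subgroup G, V ≠ ⊥ ∧ IsPGroup 2 V ∧ V ≤ Cz (P : Subgroup G) ∧ Nz (P : Subgroup G) ≤ Nz V := by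
  have : Fact (Nat.Prime 3) := ⟨Nat.prime_three⟩
  have hP9 : Nat.card (P : Subgroup G) = 9 := card_P h P
  have hPC : (P : Subgroup G) ≤ Cz (P : Subgroup G) := by
    intro x hx
    rw [Subgroup.mem_centralizer_iff]
    intro y hy
    exact comm_P h P y hy x hx
  have hCN : Cz (P : Subgroup G) ≤ Nz (P : Subgroup G) := Subgroup.centralizer_le_normalizer _
  have hd72 : Nat.card (Cz (P : Subgroup G)) ∣ 72 := by
    rw [← hM]; exact Subgroup.card_dvd_of_le hCN
  have hd9 : 9 ∣ Nat.card (Cz (P : Subgroup G)) := by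
    rw [← hP9]; exact Subgroup.card_dvd_of_le hPC
  obtain ⟨m, hm⟩ := hd9
  have hm8 : m ∣ 8 := by
    rw [hm] at hd72
    have : 9 * m ∣ 9 * 8 := by simpa using hd72
    exact (Nat.mul_dvd_mul_iff_left (by norm_num)).mp this
  have hQ : ¬ 3 ∣ Nat.card (Cz (P : Subgroup G)) / Nat.card (P : Subgroup G) := by
    rw [hm, hP9, Nat.mul_div_cancel_left _ (by norm_num)]
    intro h3
    have := h3.trans hm8
    omega
  obtain ⟨V, hVH, hVcard, hVN⟩ := NCG (p := 3) (Cz (P : Subgroup G)) (P : Subgroup G) hPC P.2 hQ inf_le_right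
  rw [hP9, hm] at hVcard
  have hVm : Nat.card V = m := by omega
  refine ⟨V, ?_, ?_, hVH, ?_⟩
  · rintro rfl
    rw [Subgroup.card_bot] at hVm
    apply hC
    symm
    apply Subgroup.eq_of_le_of_card_ge hPC
    rw [hm, hP9, ← hVm]
  · have h8 : Nat.card V ∣ 2 ^ 3 := by rw [hVm]; simpa using hm8
    obtain ⟨k, _, hk⟩ := (Nat.dvd_prime_pow Nat.prime_two).mp h8
    exact IsPGroup.of_card hk
  · refine le_trans ?_ hVN
    intro n hn
    apply mem_Nz_of_cj_eq
    rw [← Cz_cj, cj_eq_self_of_mem_Nz hn]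

end Cfsg.Agent.Lib.Helper74.O720
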