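import Mathlib
import Cfsg.Agent.Lib.Helper74.O720.Defs
import Cfsg.Agent.Lib.Helper3.O720.ORB
import Cfsg.Agent.Lib.Helper20.O720.P9

set_option autoImplicit false

namespace Cfsg.Agent.Lib.Helper74.O720

variable {G : Type*} [Group G] [Finite G] [IsSimpleGroup G]

theorem L1 (h : Nat.card G = 720) (P : Sylow 3 G) (hM : Nat.card (Nz (P : Subgroup G)) = 72) (g : G)
    (hg : g ∉ Nz (P : Subgroup G)) (h8 : Nat.card (Ig (Nz (P : Subgroup G)) g) = 8) (x : G)
    (hx : x ∉ Nz (P : Subgroup G)) : ∃ u ∈ (P : Subgroup G), (u * g)⁻¹ * x ∈ Nz (P : Subgroup G) := by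
  classical
  set M : Subgroup G := Nz (P : Subgroup G) with hMdef
  have hP9 : Nat.card (P : Subgroup G) = 9 := card_P h P
  have hPM : (P : Subgroup G) ≤ M := Subgroup.le_normalizer
  have horb := ORB (P : Subgroup G) M g
  have hle : ((P : Subgroup G) ⊓ cj g M : Subgroup G) ≤ Ig M g := inf_le_inf_right _ hPM
  have hd8 : Nat.card ((P : Subgroup G) ⊓ cj g M : Subgroup G) ∣ 8 := by
    rw [← h8]; exact Subgroup.card_dvd_of_le hle
  have hd9 : Nat.card ((P : Subgroup G) ⊓ cj g M : Subgroup G) ∣ 9 := by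
    rw [← hP9]; exact Subgroup.card_dvd_of_le inf_le_left
  have h1 : Nat.card ((P : Subgroup G) ⊓ cj g M : Subgroup G) = 1 := by
    have := Nat.dvd_gcd hd8 hd9
    simpa using this
  rw [h1, hP9, mul_one] at horb
  -- the quotient has ten points
  have hidx : Nat.card (G ⧸ M) = 10 := by
    have h2 := Subgroup.card_mul_index M
    rw [hM, h] at h2
    have : M.index = 10 := by omega
    simpa [Subgroup.index] using this
  -- the orbit avoids the base point
  have havoid : ((1 : G) : G ⧸ M) ∉ MulAction.orbit (P : Subgroup G) (g : G ⧸ M) := by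
    rintro ⟨u, hu⟩
    have hu' : (((u : G) * g : G) : G ⧸ M) = ((1 : G) : G ⧸ M) := hu
    rw [QuotientGroup.eq] at hu'
    have h3 : ((u : G) * g)⁻¹ ∈ M := by simpa using hu'
    have h4 : (u : G) * g ∈ M := by simpa using inv_mem h3
    have h5 : g ∈ M := by
      have := mul_mem (inv_mem (hPM u.2)) h4
      simpa using this
    exact hg h5
  by_contra hcon
  push Not at hcon
  have hxnot : (x : G ⧸ M) ∉ MulAction.orbit (P : Subgroup G) (g : G ⧸ M) := by
    rintro ⟨u, hu⟩
    have hu' : (((u : G) * g : G) : G ⧸ M) = (x : G ⧸ M) := hu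
    rw [QuotientGroup.eq] at hu'
    exact hcon u u.2 hu'
  have hx1 : (x : G ⧸ M) ≠ ((1 : G) : G ⧸ M) := by
    intro hh
    rw [eq_comm, QuotientGroup.eq] at hh
    exact hx (by simpa using hh)
  -- counting
  haveI : Fintype (G ⧸ M) := Fintype.ofFinite _
  set O : Set (G ⧸ M) := MulAction.orbit (P : Subgroup G) (g : G ⧸ M) with hO
  have hsub : O ⊆ ({(x : G ⧸ M), ((1 : G) : G ⧸ M)} : Set (G ⧸ M))ᶜ := by
    intro y hy
    simp only [Set.mem_compl_iff, Set.mem_insert_iff, Set.mem_singleton_iff, not_or]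
    exact ⟨fun e => hxnot (e ▸ hy), fun e => havoid (e ▸ hy)⟩
  have hc1 : Set.ncard O = 9 := by
    rw [← Nat.card_coe_set_eq]; exact horb
  have hc2 : Set.ncard (({(x : G ⧸ M), ((1 : G) : G ⧸ M)} : Set (G ⧸ M))ᶜ) = 8 := by
    rw [Set.ncard_compl, hidx, Set.ncard_pair hx1]
  have := Set.ncard_le_ncard hsub (Set.toFinite _)
  omega

end Cfsg.Agent.Lib.Helper74.O720
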