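import Mathlib
import Cfsg.Agent.Lib.Helper74.O720.Defs

set_option autoImplicit false

namespace Cfsg.Agent.Lib.Helper74.O720

variable {G : Type*} [Group G] [Finite G] [IsSimpleGroup G]

theorem L2 (h : Nat.card G = 720) (P : Sylow 3 G) (g : G)
    (h8 : Nat.card (Ig (Nz (P : Subgroup G)) g) = 8) (s : G) (hs : s ∈ Ig (Nz (P : Subgroup G)) g) (u : G)
    (hu : u ∈ (P : Subgroup G)) (hfix : s ∈ cj (u * g) (Nz (P : Subgroup G))) : s * u = u * s := by
  have hsN : s ∈ Nz (P : Subgroup G) := hs.1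
  have hsg : g⁻¹ * s * g ∈ Nz (P : Subgroup G) := mem_cj.mp hs.2
  have hfix' : (u * g)⁻¹ * s * (u * g) ∈ Nz (P : Subgroup G) := mem_cj.mp hfix
  have hu' : s * u * s⁻¹ ∈ (P : Subgroup G) := (Subgroup.mem_normalizer_iff.mp hsN u).mp hu
  set w : G := u⁻¹ * (s * u * s⁻¹) with hw
  have hwP : w ∈ (P : Subgroup G) := mul_mem (inv_mem hu) hu'
  have hwN : w ∈ Nz (P : Subgroup G) := Subgroup.le_normalizer hwP
  have hwg : w ∈ cj g (Nz (P : Subgroup G)) := by
    rw [mem_cj]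
    have : g⁻¹ * w * g = ((u * g)⁻¹ * s * (u * g)) * (g⁻¹ * s * g)⁻¹ := by
      rw [hw]; group
    rw [this]
    exact mul_mem hfix' (inv_mem hsg)
  have hwI : w ∈ Ig (Nz (P : Subgroup G)) g := ⟨hwN, hwg⟩
  have ho8 : orderOf w ∣ 8 := by
    have := Subgroup.orderOf_dvd_natCard _ hwI
    rwa [h8] at this
  obtain ⟨k, hk⟩ := (IsPGroup.iff_orderOf.mp P.2) ⟨w, hwP⟩
  have ho3 : orderOf w = 3 ^ k := by
    rw [← hk]; simp
  have hcop : Nat.Coprime (orderOf w) 8 := by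
    rw [ho3]; exact Nat.Coprime.pow_left k (by norm_num)
  have h1 : orderOf w = 1 := Nat.Coprime.eq_one_of_dvd hcop ho8
  have hw1 : w = 1 := orderOf_eq_one_iff.mp h1
  have : u⁻¹ * (s * u * s⁻¹) = 1 := hw1
  have h2 : s * u * s⁻¹ = u := by
    have := congrArg (fun z => u * z) this
    simpa using this
  calc s * u = (s * u * s⁻¹) * s := by group
    _ = u * s := by rw [h2]

end Cfsg.Agent.Lib.Helper74.O720
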